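import Cfsg.Agent.H803.NotPSU
import Cfsg.Agent.S5044
import Cfsg.Agent.S0102
import Cfsg.Agent.OddRank.SzTits
import Cfsg.Agent.StdL2.Cover
/-!
# Identification of groups generated by a "root subgroup" and one odd transposition (helper803)

`rank_one`: `X` is generated by odd transpositions, commuting is an equivalence relation on them, `A` is
a subgroup of order at least 4 whose involutions form one commuting class, `X = ⟨A, x⟩` and `O₂(X) = 1`.
Then `X ≅ L₂(q)` or `Sz(q)`.
-/
set_option autoImplicit false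

namespace Cfsg.Agent.H803.RankOne
open Cfsg

/-- A central extension of a finite group with cyclic odd Sylow subgroups by a perfect group without normal
2-subgroups is an isomorphism. -/
theorem ker_eq_bot {X K : Type*} [Group X] [Finite X] [Group K] [Finite K]
    (hperf : commutator X = ⊤) (hO2 : pCore 2 X = ⊥) (σ : X →* K) (hσ : Function.Surjective σ)
    (hz : σ.ker ≤ Subgroup.center X)
    (hcyc : ∀ p : ℕ, p.Prime → p ≠ 2 → ∀ P : Sylow p K, IsCyclic P) : σ.ker = ⊥ := by
  have hpK : commutator K = ⊤ := by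
    rw [eq_top_iff]
    rintro y -
    obtain ⟨x, rfl⟩ := hσ y
    have hx : x ∈ commutator X := by rw [hperf]; exact Subgroup.mem_top _
    have h1 : σ x ∈ (commutator X).map σ := ⟨x, hx, rfl⟩
    have h2 : (commutator X).map σ ≤ commutator K := by
      rw [commutator_def, commutator_def, Subgroup.map_commutator]
      exact Subgroup.commutator_mono le_top le_top
    exact h2 h1
  by_contra hne
  have h1 : Nat.card σ.ker ≠ 1 := fun h => hne (Subgroup.card_eq_one.1 h)
  obtain ⟨p, hp, hpd⟩ := Nat.exists_prime_and_dvd h1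
  have : Fact p.Prime := ⟨hp⟩
  by_cases hp2 : p = 2
  · subst hp2
    obtain ⟨z, hz2⟩ := exists_prime_orderOf_dvd_card' 2 hpd
    have hz2' : orderOf (z : X) = 2 := by rw [Subgroup.orderOf_coe, hz2]
    have hzc : (z : X) ∈ Subgroup.center X := hz z.2
    have hn : (Subgroup.zpowers (z : X)).Normal := by
      refine ⟨fun n hn g => ?_⟩
      have hnc : n ∈ Subgroup.center X :=
        (Subgroup.zpowers_le.2 hzc) hn
      rw [(Subgroup.mem_center_iff.1 hnc g), mul_inv_cancel_right]
      exact hn
    have hpg : IsPGroup 2 (Subgroup.zpowers (z : X)) :=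
      IsPGroup.of_card (n := 1) (by rw [Nat.card_zpowers, hz2', pow_one])
    have hle : Subgroup.zpowers (z : X) ≤ pCore 2 X := le_sSup ⟨hn, hpg⟩
    rw [hO2] at hle
    have : (z : X) = 1 := Subgroup.mem_bot.1 (hle (Subgroup.mem_zpowers _))
    rw [this, orderOf_one] at hz2'
    omega
  · exact Cfsg.Agent.S0102.result hpK (hcyc p hp hp2) σ hσ hz hperf hpd

theorem twoZCore_eq_center {X : Type*} [Group X] (hO2 : pCore 2 X = ⊥) :
    twoZCore X = Subgroup.center X := by
  ext z
  rw [twoZCore, Subgroup.mem_comap, Subgroup.mem_center_iff, Subgroup.mem_center_iff]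
  have hinj : Function.Injective (QuotientGroup.mk' (pCore 2 X)) := by
    rw [← MonoidHom.ker_eq_bot_iff, QuotientGroup.ker_mk', hO2]
  constructor
  · intro h g
    apply hinj
    rw [map_mul, map_mul]
    exact h _
  · intro h g
    obtain ⟨g, rfl⟩ := QuotientGroup.mk'_surjective _ g
    rw [← map_mul, ← map_mul, h g]

/-- **Identification lemma**: `X = ⟨A, x⟩`, `A#` a commuting class of odd transpositions. -/
theorem rank_one {X : Type*} [Group X] [Finite X] {D : Set X} (hD : IsOddTranspositionSet D)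
    (A : Subgroup X) (hA : 4 ≤ Nat.card A) {d x : X} (hd : d ∈ D) (hx : x ∈ D) (hdA : d ∈ A)
    (hAD : ∀ a ∈ A, a ≠ 1 → a ∈ D)
    (hTI : ∀ a ∈ D, ∀ b ∈ D, ∀ c ∈ D, a * b = b * a → b * c = c * b → a * c = c * a)
    (hX : A ⊔ Subgroup.zpowers x = ⊤) (hxd : x * d ≠ d * x) (hO2 : pCore 2 X = ⊥) :
    (∃ (F : Type) (_ : Field F) (_ : Fintype F), CharP F 2 ∧ 4 ≤ Fintype.card F ∧
      Nonempty (X ≃* Matrix.ProjectiveSpecialLinearGroup (Fin 2) F)) ∨ Lie.IsoSuzuki X := by
  have hsq : ∀ e ∈ D, e * e = 1 := fun e he => by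
    rw [← pow_two, ← hD.1.orderOf_eq e he, pow_orderOf_eq_one]
  have hAsq : ∀ a ∈ A, a * a = 1 := by
    intro a ha
    by_cases h1 : a = 1
    · rw [h1, one_mul]
    · exact hsq a (hAD a ha h1)
  have hAcomm : ∀ a ∈ A, ∀ b ∈ A, a * b = b * a := by
    intro a ha b hb
    have h1 := hAsq (a * b) (A.mul_mem ha hb)
    have ha1 := hAsq a ha
    have hb1 := hAsq b hb
    calc a * b = a * b * (a * b) * (b * a) := by
          rw [mul_assoc (a * b) (a * b) (b * a), mul_assoc a b (b * a), ← mul_assoc b b a, hb1, one_mul,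
            ha1, mul_one]
      _ = b * a := by rw [h1, one_mul]
  have hd1 : d ≠ 1 := by
    rintro rfl
    exact hxd (by rw [mul_one, one_mul])
  -- a product of two commuting members of `D` in `D`
  have hDD : (D ∩ Cfsg.commutingProducts D).Nonempty := by
    have h1 : ∃ b ∈ A, b ≠ 1 ∧ b ≠ d := by
      by_contra hcon
      push Not at hcon
      have h2 : (A : Set X) ⊆ {1, d} := by
        intro b hb
        by_cases hb1 : b = 1
        · exact Or.inl hb1
        · exact Or.inr (hcon b hb hb1)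
      have h3 := Set.ncard_le_ncard h2 (Set.toFinite _)
      have h4 : ({1, d} : Set X).ncard ≤ 2 := by
        have := Set.ncard_insert_le (1 : X) {d}
        rw [Set.ncard_singleton] at this
        exact this
      have h5 : Nat.card A = (A : Set X).ncard := rfl
      omega
    obtain ⟨b, hb, hb1, hbd⟩ := h1
    have hne : d * b ≠ 1 := by
      intro h
      apply hbd
      have : d * (d * b) = d := by rw [h, mul_one]
      rw [← mul_assoc, hAsq d hdA, one_mul] at this
      exact this
    exact ⟨d * b, hAD _ (A.mul_mem hdA hb) hne, d, hd, b, hAD b hb hb1, hAcomm d hdA b hb, hne, rfl⟩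
  have hdis : ¬ Cfsg.IsConnectedSet (Cfsg.CommAdj D) D := by
    intro hc
    have h1 := hc d hd x hx
    have h2 : ∀ y, Relation.ReflTransGen (Cfsg.CommAdj D) d y → y ∈ D ∧ d * y = y * d := by
      intro y hy
      induction hy with
      | refl => exact ⟨hd, rfl⟩
      | tail _ hbc ih =>
        exact ⟨hbc.2.1, hTI d hd _ hbc.1 _ hbc.2.1 ih.2 hbc.2.2.2⟩
    exact hxd (h2 x h1).2.symm
  have hodd := Cfsg.Agent.H736.RootDisc.isConnectedSet_oddAdj hD.1 hdis
  have hperf := Cfsg.Agent.H737.commutator_eq_top hD.1 hodd hDD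
  have hsim : IsSimpleGroup (X ⧸ twoZCore X) := (Cfsg.Agent.S5048.result hD.1 hodd hDD).2
  have hzc := twoZCore_eq_center hO2
  -- transport along an isomorphism with the quotient
  have key : ∀ {K : Type} [Group K] [Finite K] (e : X ⧸ twoZCore X ≃* K),
      (∀ p : ℕ, p.Prime → p ≠ 2 → ∀ P : Sylow p K, IsCyclic P) → Nonempty (X ≃* K) := by
    intro K _ _ e hcyc
    let σ : X →* K := e.toMonoidHom.comp (QuotientGroup.mk' (twoZCore X))
    have hσ : Function.Surjective σ := e.surjective.comp (QuotientGroup.mk'_surjective _)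
    have hker : σ.ker = Subgroup.center X := by
      rw [← hzc]
      ext z
      rw [MonoidHom.mem_ker]
      change e (QuotientGroup.mk' (twoZCore X) z) = 1 ↔ _
      rw [map_eq_one_iff e e.injective]
      exact QuotientGroup.eq_one_iff z
    have hbot := ker_eq_bot hperf hO2 σ hσ hker.le hcyc
    exact ⟨MulEquiv.ofBijective σ ⟨(MonoidHom.ker_eq_bot_iff σ).1 hbot, hσ⟩⟩
  rcases Cfsg.Agent.S5044.result hD.1 hDD with h | h | h | h
  · exact absurd h hdis
  · left
    obtain ⟨F, iF, iF', hF2, hF4, ⟨e⟩⟩ := h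
    refine ⟨F, iF, iF', hF2, hF4, ?_⟩
    obtain ⟨n, -, hn⟩ := FiniteField.card F 2
    refine key e fun p hp hp2 P => ?_
    have : Fact p.Prime := ⟨hp⟩
    exact Cfsg.Agent.StdL2.Cover.isCyclic_sylow_even n.2 hn hp2 P
  · right
    have h0 := h
    obtain ⟨F, iF, iF', m, hm, hF, ⟨e⟩⟩ := h
    refine ⟨F, iF, iF', m, hm, hF, ?_⟩
    refine key e fun p hp hp2 P => ?_
    have : Fact p.Prime := ⟨hp⟩
    exact Cfsg.Agent.OddRank.SzTits.isCyclic_of_isPGroup
      (X := _) ⟨F, iF, iF', m, hm, hF, ⟨MulEquiv.refl _⟩⟩ hp2 (P : Subgroup _) P.2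
  · exfalso
    obtain ⟨F, iF, iF', q, hF2, hFq, hq4, ⟨e⟩⟩ := h
    obtain ⟨m, -, hm⟩ := FiniteField.card F 2
    have hqd : q ∣ 2 ^ (m : ℕ) := by
      rw [← hm, hFq, pow_two]; exact Dvd.intro _ rfl
    obtain ⟨n, -, rfl⟩ := (Nat.dvd_prime_pow Nat.prime_two).1 hqd
    have hn : 2 ≤ n := by
      by_contra hlt
      have : n = 0 ∨ n = 1 := by omega
      rcases this with rfl | rfl <;> norm_num at hq4
    have hcard : Nat.card F = (2 ^ n) ^ 2 := by rw [Nat.card_eq_fintype_card, hFq]
    let σ : X →* Cfsg.PSU 3 F (2 ^ n) := e.toMonoidHom.comp (QuotientGroup.mk' (twoZCore X))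
    have hσ : Function.Surjective σ := e.surjective.comp (QuotientGroup.mk'_surjective _)
    have hsim' : IsSimpleGroup (Cfsg.PSU 3 F (2 ^ n)) := by
      have : Nontrivial (Cfsg.PSU 3 F (2 ^ n)) := e.symm.toEquiv.nontrivial
      exact IsSimpleGroup.isSimpleGroup_of_surjective e.toMonoidHom e.surjective
    have hZ : Subgroup.center (Cfsg.PSU 3 F (2 ^ n)) = ⊥ := by
      rcases hsim'.eq_bot_or_eq_top_of_normal _ (inferInstance :
        (Subgroup.center (Cfsg.PSU 3 F (2 ^ n))).Normal) with h | h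
      · exact h
      · exfalso
        have h1 : commutator (Cfsg.PSU 3 F (2 ^ n)) = ⊥ := by
          rw [commutator_def, Subgroup.commutator_eq_bot_iff_le_centralizer, ← h]
          intro z _
          rw [Subgroup.mem_centralizer_iff]
          intro y hy
          exact Subgroup.mem_center_iff.1 (by rw [h]; exact Subgroup.mem_top z) y
        have h2 : (⊤ : Subgroup (Cfsg.PSU 3 F (2 ^ n))) ≤ ⊥ := by
          rw [← h1, commutator_def]
          calc (⊤ : Subgroup (Cfsg.PSU 3 F (2 ^ n))) = (commutator X).map σ := by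
                rw [hperf, ← MonoidHom.range_eq_map, MonoidHom.range_eq_top.2 hσ]
            _ ≤ _ := by
                rw [commutator_def, Subgroup.map_commutator]
                exact Subgroup.commutator_mono le_top le_top
        obtain ⟨a, b, hab⟩ := hsim'.exists_pair_ne
        apply hab
        rw [Subgroup.mem_bot.1 (h2 (Subgroup.mem_top a)), Subgroup.mem_bot.1 (h2 (Subgroup.mem_top b))]
    refine not_psu hn hcard hZ (A.map σ) ?_ (σ x) ?_ ?_
    · rintro _ ⟨a, ha, rfl⟩
      rw [← map_mul, hAsq a ha, map_one]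
    · rw [← map_mul, hsq x hx, map_one]
    · rw [← MonoidHom.map_zpowers, ← Subgroup.map_sup, hX, ← MonoidHom.range_eq_map,
        MonoidHom.range_eq_top.2 hσ]

end Cfsg.Agent.H803.RankOne
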