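import Cfsg.Agent.BenderType.Inv
import Cfsg.Agent.H629.PslTwoEven
import Cfsg.Agent.Lib.Cores

/-!
# More facts on `Sz(q)` and `L₂(2^n)` (helper803, for S5052)

* `suzuki_four`: a Sylow 2-subgroup of a Suzuki group contains an element of order 4 commuting with its involutions;
* `l2_split`: a perfect central 2-extension of `L₂(2^n)` in which a complement to the centre covers the involutions commuting
  with one involution is trivial.
-/

set_option autoImplicit false
set_option linter.unusedVariables false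

namespace Cfsg.Agent.H803

open Cfsg Cfsg.Agent.LieRecognition Cfsg.Agent.LieRecognition.SzMatrix

/-- An element of order 4 commuting with all involutions. -/
def HasFour (S : Type*) [Group S] : Prop :=
  ∃ s : S, s * s ≠ 1 ∧ (s * s) * (s * s) = 1 ∧ ∀ t : S, t * t = 1 → s * t = t * s

theorem HasFour.congr {S T : Type*} [Group S] [Group T] (h : HasFour S) (e : S ≃* T) : HasFour T := by
  obtain ⟨s, h1, h2, h3⟩ := h
  refine ⟨e s, ?_, ?_, ?_⟩
  · rw [← map_mul]
    intro h
    exact h1 (e.injective (by rw [h, map_one]))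
  · rw [← map_mul, ← map_mul, h2, map_one]
  · intro t ht
    have h4 := h3 (e.symm t) (by rw [← map_mul, ht, map_one])
    have h5 := congrArg e h4
    rwa [map_mul, map_mul, e.apply_symm_apply] at h5

theorem hasFour_unip {F : Type*} [Field F] {θ : F →+* F} {e : ℕ} (H : Good F θ e) : HasFour H.unip := by
  refine ⟨⟨H.u 1 0, H.u_mem_unip 1 0⟩, ?_, ?_, ?_⟩
  · intro h
    have h1 : H.u 1 0 * H.u 1 0 = 1 := congrArg Subtype.val h
    rw [H.u_mul, ← H.u_zero] at h1
    have h2 := (H.u_inj h1).2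
    rw [map_one, mul_one, add_zero, zero_add] at h2
    exact one_ne_zero h2
  · apply Subtype.ext
    show (H.u 1 0 * H.u 1 0) * (H.u 1 0 * H.u 1 0) = 1
    have h2 : (1 : F) + 1 = 0 := H.add_self 1
    rw [H.u_mul, map_one, mul_one, add_zero, zero_add, h2, H.u_mul, zero_mul, add_zero, add_zero, h2, H.u_zero]
  · rintro ⟨t, ht⟩ h
    obtain ⟨a, b, rfl⟩ := (H.mem_unip_iff t).1 ht
    have h1 : H.u a b * H.u a b = 1 := congrArg Subtype.val h
    rw [H.u_mul, ← H.u_zero] at h1
    have h2 := (H.u_inj h1).2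
    rw [H.add_self, zero_add, mul_eq_zero, map_eq_zero, or_self] at h2
    subst h2
    apply Subtype.ext
    show H.u 1 0 * H.u 0 b = H.u 0 b * H.u 1 0
    rw [H.u_mul, H.u_mul, map_zero, mul_zero, zero_mul, add_comm 0 (1 : F), add_comm 0 b]

theorem hasFour_sylow {F : Type*} [Field F] [Fintype F] {m : ℕ} (hm : 1 ≤ m)
    (hF : Fintype.card F = 2 ^ (2 * m + 1)) (P : Sylow 2 ↥(Cfsg.Lie.Sz F (2 ^ (m + 1)))) :
    HasFour (P : Subgroup ↥(Cfsg.Lie.Sz F (2 ^ (m + 1)))) := by
  have : Fact (Nat.Prime 2) := ⟨Nat.prime_two⟩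
  have H := good hF
  have hcF : Nat.card F = 2 ^ (2 * m + 1) := by rw [Nat.card_eq_fintype_card, hF]
  have hodd : ¬ 2 ∣ H.unip.index := by
    have h1 := Subgroup.card_mul_index H.unip
    rw [(S1163.result hm hF).1, H.card_unip, hcF, mul_assoc] at h1
    have h2 := Nat.eq_of_mul_eq_mul_left (by positivity) h1
    rw [h2]
    intro h
    rcases (Nat.Prime.dvd_mul Nat.prime_two).mp h with h | h
    · have h1 : 1 ≤ 2 ^ (2 * m + 1) := Nat.one_le_two_pow
      have h2 : 2 ∣ 2 ^ (2 * m + 1) := dvd_pow_self 2 (by omega)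
      omega
    · have h2 : 2 ∣ (2 ^ (2 * m + 1)) ^ 2 := dvd_pow (dvd_pow_self 2 (by omega)) (by omega)
      omega
  have hpg : IsPGroup 2 H.unip := by
    apply IsPGroup.of_card (n := (2 * m + 1) * 2)
    rw [H.card_unip, hcF, ← pow_mul]
  exact (hasFour_unip H).congr ((hpg.toSylow hodd).equiv P)

/-- Every Sylow 2-subgroup of a Suzuki group contains an element of order 4 commuting with all its involutions. -/
theorem suzuki_four {K : Type*} [Group K] [Finite K] (h : Lie.IsoSuzuki K) (P : Sylow 2 K) :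
    ∃ s ∈ P, s * s ≠ 1 ∧ (s * s) * (s * s) = 1 ∧ ∀ t ∈ P, t * t = 1 → Commute s t := by
  have : Fact (Nat.Prime 2) := ⟨Nat.prime_two⟩
  obtain ⟨F, iF, iF', m, hm, hF, ⟨e⟩⟩ := h
  set Q : Sylow 2 ↥(Cfsg.Lie.Sz F (2 ^ (m + 1))) := P.mapSurjective (f := e.toMonoidHom) e.surjective with hQ
  have hmem : ∀ x : K, e x ∈ Q ↔ x ∈ P := by
    intro x
    change e x ∈ (P : Subgroup K).map e.toMonoidHom ↔ _
    rw [Subgroup.mem_map]
    constructor
    · rintro ⟨y, hy, hyx⟩
      have : y = x := e.injective hyx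
      rwa [← this]
    · intro hx
      exact ⟨x, hx, rfl⟩
  obtain ⟨s, h1, h2, h3⟩ := hasFour_sylow hm hF Q
  refine ⟨e.symm s, (hmem _).1 (by rw [e.apply_symm_apply]; exact s.2), ?_, ?_, ?_⟩
  · rw [← map_mul]
    intro h
    apply h1
    apply Subtype.ext
    exact e.symm.injective (h.trans (map_one e.symm).symm)
  · rw [← map_mul, ← map_mul]
    have h4 : ((s : ↥(Cfsg.Lie.Sz F (2 ^ (m + 1)))) * s) * (s * s) = 1 := congrArg Subtype.val h2
    rw [h4, map_one]
  · intro t ht htt
    have h4 := h3 ⟨e t, (hmem t).2 ht⟩ (Subtype.ext (by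
      show e t * e t = 1
      rw [← map_mul, htt, map_one]))
    have h5 : (s : ↥(Cfsg.Lie.Sz F (2 ^ (m + 1)))) * e t = e t * s := congrArg Subtype.val h4
    have h6 := congrArg e.symm h5
    rw [map_mul, map_mul, e.symm_apply_apply] at h6
    exact h6

/-- A central 2-element of a perfect group with abelian Sylow 2-subgroups is trivial. -/
theorem eq_one_of_abelian_sylow {X : Type*} [Group X] [Finite X] (p : ℕ) [Fact p.Prime] (hperf : commutator X = ⊤)
    (P : Sylow p X) (hP : IsMulCommutative (P : Subgroup X)) {z : X} (hz : z ∈ Subgroup.center X) (hzP : z ∈ P) :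
    z = 1 := by
  classical
  let _ : CommGroup (P : Subgroup X) := IsMulCommutative.instCommGroup
  have hfi : (P : Subgroup X).FiniteIndex := inferInstance
  let V : X →* (P : Subgroup X) := MonoidHom.transfer (MonoidHom.id (P : Subgroup X))
  have hV : ∀ x, V x = 1 := by
    intro x
    have h1 : commutator X ≤ V.ker := Abelianization.commutator_subset_ker V
    have h2 : x ∈ V.ker := h1 (by rw [hperf]; exact Subgroup.mem_top x)
    exact h2
  have hc : ∀ (k : ℕ) (g₀ : X), g₀⁻¹ * z ^ k * g₀ = z ^ k := by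
    intro k g₀
    have h3 := Subgroup.mem_center_iff.1 ((Subgroup.center X).pow_mem hz k) g₀⁻¹
    rw [h3, inv_mul_cancel_right]
  have h4 := MonoidHom.transfer_eq_pow (MonoidHom.id (P : Subgroup X)) z (fun k g₀ _ => hc k g₀)
  have h5 : z ^ (P : Subgroup X).index = 1 := by
    have h6 := (h4.symm.trans (hV z))
    exact congrArg Subtype.val h6
  have h7 : orderOf z ∣ (P : Subgroup X).index := orderOf_dvd_of_pow_eq_one h5
  have h8 : orderOf z ∣ Nat.card (P : Subgroup X) := by
    have := orderOf_dvd_natCard (⟨z, hzP⟩ : (P : Subgroup X))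
    rwa [← Subgroup.orderOf_coe] at this
  have h9 : Nat.Coprime (Nat.card (P : Subgroup X)) (P : Subgroup X).index := P.card_coprime_index
  have h10 := Nat.dvd_gcd h8 h7
  rw [h9.gcd_eq_one] at h10
  exact orderOf_eq_one_iff.1 (Nat.dvd_one.1 h10)

/-- Sylow 2-subgroups of `L₂(2^n)` are elementary abelian of order `2^n`. -/
theorem psl_sylow {F : Type*} [Field F] [Fintype F] [CharP F 2] {G : Type*} [Group G] [Finite G]
    (e : G ≃* Matrix.ProjectiveSpecialLinearGroup (Fin 2) F) (S : Sylow 2 G) :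
    (∀ x ∈ S, x * x = 1) ∧ (∀ x ∈ S, ∀ y ∈ S, x * y = y * x) ∧ Nat.card (S : Subgroup G) = Fintype.card F := by
  have : Fact (Nat.Prime 2) := ⟨Nat.prime_two⟩
  obtain ⟨g, hg⟩ := H629.PslTwoEven.exists_eq e S
  have hcomm := (Classification.PSLTwoEvenSylow.sylow_comm e S).is_comm.comm
  refine ⟨?_, fun x hx y hy => congrArg Subtype.val (hcomm ⟨x, hx⟩ ⟨y, hy⟩), ?_⟩
  · intro x hx
    obtain ⟨a, ha⟩ := hg x hx
    have haa : a * a = 1 := by
      have h1 : Multiplicative.toAdd a + Multiplicative.toAdd a = 0 := CharTwo.add_self_eq_zero _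
      exact h1
    have h2 : g * (x * x) * g⁻¹ = 1 := by
      have h3 : g * (x * x) * g⁻¹ = (g * x * g⁻¹) * (g * x * g⁻¹) := by group
      rw [h3, ha, ← map_mul, ← map_mul, haa, map_one, map_one]
    have h4 := congrArg (fun y => g⁻¹ * y * g) h2
    simpa [mul_assoc] using h4
  · obtain ⟨n, hn0, hn⟩ := FiniteField.card F 2
    have hcardG : Nat.card G = 2 ^ (n : ℕ) * ((2 ^ (n : ℕ)) ^ 2 - 1) := by
      rw [Nat.card_congr e.toEquiv, Classification.PSLTwoEvenSylow.card_psl, hn]
    have h1 : Nat.card (S : Subgroup G) = 2 ^ (Nat.card G).factorization 2 := S.card_eq_multiplicity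
    have hpos : (2 ^ (n : ℕ)) ^ 2 - 1 ≠ 0 := by
      have : 1 < (2 ^ (n : ℕ)) ^ 2 := by
        rw [← pow_mul]; exact Nat.one_lt_two_pow (by have := n.pos; omega)
      omega
    have hnd : ¬ 2 ∣ (2 ^ (n : ℕ)) ^ 2 - 1 := by
      have h2 : 2 ∣ (2 ^ (n : ℕ)) ^ 2 := by
        rw [← pow_mul]; exact dvd_pow_self 2 (by have := n.pos; positivity)
      omega
    rw [h1, hcardG, Nat.factorization_mul (by positivity) hpos, Finsupp.add_apply,
      Nat.factorization_eq_zero_of_not_dvd hnd, add_zero, Nat.Prime.factorization_pow Nat.prime_two,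
      Finsupp.single_eq_same, hn]

/-- A perfect central 2-extension of `L₂(2^n)` with a complement `A` to the centre covering the involutions commuting with one
member `d` of `A`: the centre is trivial and `A` has order `2^n`. -/
theorem l2_split {X : Type*} [Group X] [Finite X] (hperf : commutator X = ⊤) (hZ : pCore 2 X ≤ Subgroup.center X)
    {F : Type*} [Field F] [Fintype F] [CharP F 2] (_hF : 4 ≤ Fintype.card F)
    (e : (X ⧸ pCore 2 X) ≃* Matrix.ProjectiveSpecialLinearGroup (Fin 2) F) (A : Subgroup X)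
    (hA : ∀ a ∈ A, a * a = 1) (hAZ : A ⊓ pCore 2 X = ⊥) {d : X} (hd : d ∈ A) (hd1 : d ≠ 1)
    (hAd : ∀ y : X ⧸ pCore 2 X, y * y = 1 → y ≠ 1 → Commute y (QuotientGroup.mk d) →
      ∃ a ∈ A, (QuotientGroup.mk a : X ⧸ pCore 2 X) = y) :
    pCore 2 X = ⊥ ∧ Fintype.card F = Nat.card A := by
  have hFact : Fact (Nat.Prime 2) := ⟨Nat.prime_two⟩
  set Z := pCore 2 X with hZdef
  have hAcomm : ∀ a ∈ A, ∀ b ∈ A, a * b = b * a := by
    intro a ha b hb
    have h1 := hA (a * b) (A.mul_mem ha hb)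
    have ha1 := hA a ha
    have hb1 := hA b hb
    calc a * b = a * b * (a * b) * (b * a) := by
          rw [mul_assoc (a * b) (a * b) (b * a), mul_assoc a b (b * a), ← mul_assoc b b a, hb1, one_mul,
            ha1, mul_one]
      _ = b * a := by rw [h1, one_mul]
  have hApg : IsPGroup 2 A := by
    intro a
    refine ⟨1, Subtype.ext ?_⟩
    show (a : X) ^ (2 ^ 1) = 1
    rw [pow_one, pow_two]
    exact hA a a.2
  obtain ⟨P, hP⟩ := hApg.exists_le_sylow
  -- `Z ≤ P`
  have hZP : Z ≤ (P : Subgroup X) := Lib.Cores.pCore_le_sylow P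
  -- the image of `P`
  set Pb : Sylow 2 (X ⧸ Z) := P.mapSurjective (f := QuotientGroup.mk' Z) (QuotientGroup.mk'_surjective Z) with hPb
  have hPbm : ∀ x ∈ P, (QuotientGroup.mk x : X ⧸ Z) ∈ Pb := fun x hx => ⟨x, hx, rfl⟩
  obtain ⟨hsq, hcm, hcard⟩ := psl_sylow e Pb
  have hsplit : ∀ x ∈ P, ∃ a ∈ A, ∃ z ∈ Z, x = a * z := by
    intro x hx
    by_cases h1 : (QuotientGroup.mk x : X ⧸ Z) = 1
    · exact ⟨1, A.one_mem, x, (QuotientGroup.eq_one_iff x).1 h1, (one_mul x).symm⟩
    · obtain ⟨a, ha, hax⟩ := hAd (QuotientGroup.mk x) (hsq _ (hPbm x hx)) h1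
        (hcm _ (hPbm x hx) _ (hPbm d (hP hd)))
      refine ⟨a, ha, a⁻¹ * x, QuotientGroup.eq.1 hax, by group⟩
  have hPcomm : IsMulCommutative (P : Subgroup X) := by
    refine ⟨⟨?_⟩⟩
    rintro ⟨x, hx⟩ ⟨y, hy⟩
    obtain ⟨a, ha, z, hz, rfl⟩ := hsplit x hx
    obtain ⟨b, hb, w, hw, rfl⟩ := hsplit y hy
    apply Subtype.ext
    show a * z * (b * w) = b * w * (a * z)
    have hzc := fun g => Subgroup.mem_center_iff.1 (hZ hz) g
    have hwc := fun g => Subgroup.mem_center_iff.1 (hZ hw) g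
    calc a * z * (b * w) = a * (z * b) * w := by group
      _ = a * (b * z) * w := by rw [hzc b]
      _ = (a * b) * (z * w) := by group
      _ = (b * a) * (w * z) := by rw [hAcomm a ha b hb, hwc z]
      _ = b * (a * w) * z := by group
      _ = b * (w * a) * z := by rw [hwc a]
      _ = b * w * (a * z) := by group
  have hZbot : Z = ⊥ := by
    rw [eq_bot_iff]
    intro z hz
    exact Subgroup.mem_bot.2 (eq_one_of_abelian_sylow 2 hperf P hPcomm (hZ hz) (hZP hz))
  refine ⟨hZbot, ?_⟩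
  have hPA : (P : Subgroup X) = A := by
    apply le_antisymm _ hP
    intro x hx
    obtain ⟨a, ha, z, hz, rfl⟩ := hsplit x hx
    rw [hZbot, Subgroup.mem_bot] at hz
    rw [hz, mul_one]
    exact ha
  rw [← hcard, ← hPA]
  have hinj : Function.Injective (QuotientGroup.mk' Z) := by
    rw [← MonoidHom.ker_eq_bot_iff, QuotientGroup.ker_mk', hZbot]
  exact Nat.card_congr ((P : Subgroup X).equivMapOfInjective (QuotientGroup.mk' Z) hinj).symm.toEquiv

end Cfsg.Agent.H803
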